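import Cfsg.Agent.Leech.Moments
import Cfsg.Agent.Leech.HS

/-!
The 352 vectors of a Higman-Sims pair.
-/

set_option autoImplicit false

namespace CfsgLib.HS352

open Cfsg CfsgLib.Leech CfsgLib.Golay

/-- The vectors attached to a pair. -/
def IsX (v w x : leechLattice) : Prop :=
  sqNorm x.1 = 32 ∧ dotInt v.1 x.1 = 16 ∧ dotInt w.1 x.1 = -24

theorem dot_neg_sub (a b x : GolayPt → ℤ) : dotInt a (-b - x) = -dotInt a b - dotInt a x := by
  simp only [dotInt, Pi.sub_apply, Pi.neg_apply, ← Finset.sum_neg_distrib, ← Finset.sum_sub_distrib]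
  exact Finset.sum_congr rfl fun i _ => by ring

theorem neg_sub_spec {w x : GolayPt → ℤ} (hw : sqNorm w = 48) (hx : sqNorm x = 32) :
    sqNorm (-w - x) = 32 ↔ dotInt w x = -24 := by
  have e : dotInt (-w) x = -dotInt w x := by simp [dotInt]
  rw [sqNorm_sub, sqNorm_neg, e]
  omega

theorem isX_mirror {v w x : leechLattice} (hw : sqNorm w.1 = 48) (hvw : dotInt v.1 w.1 = -32) (h : IsX v w x) :
    IsX v w (-w - x) := by
  obtain ⟨h1, h2, h3⟩ := h
  unfold IsX
  simp only [AddSubgroup.coe_sub, AddSubgroup.coe_neg]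
  refine ⟨(neg_sub_spec hw h1).2 h3, ?_, ?_⟩
  · rw [dot_neg_sub]; omega
  · rw [dot_neg_sub, dot_self, hw]; omega

theorem ncard_isX {v w : leechLattice} (hv : sqNorm v.1 = 48) (hw : sqNorm w.1 = 48)
    (hvw : dotInt v.1 w.1 = -32) : {x : leechLattice | IsX v w x}.ncard = 352 := by
  classical
  let D : ℤ → Set (GolayPt → ℤ) := fun d =>
    {x | x ∈ leechLattice ∧ sqNorm x = 32 ∧ dotInt w.1 x = -24 ∧ dotInt v.1 x = d}
  have hfin : ∀ d, (D d).Finite := fun d => ncard_32.2.subset fun x hx => ⟨hx.1, hx.2.1⟩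
  have h24 : (D 24).ncard = 100 := by
    refine Eq.trans (congrArg Set.ncard (Set.ext fun x => ?_)) (hundred_count hv hw hvw)
    exact ⟨fun ⟨a, b, c, d⟩ => ⟨a, b, d, c⟩, fun ⟨a, b, c, d⟩ => ⟨a, b, d, c⟩⟩
  have hmap : ∀ d, ∀ x ∈ D d, -w.1 - x ∈ D (32 - d) := by
    rintro d x ⟨a, b, c, e⟩
    refine ⟨sub_mem (neg_mem w.2) a, (neg_sub_spec hw b).2 c, ?_, ?_⟩
    · rw [dot_neg_sub, dot_self, hw]; omega
    · rw [dot_neg_sub]; omega
  have h8 : (D 8).ncard = 100 := by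
    rw [← h24]
    refine Set.ncard_congr (fun x _ => -w.1 - x) (fun x hx => hmap 8 x hx)
      (fun a b _ _ h => sub_right_injective h) fun b hb => ⟨-w.1 - b, hmap 24 b hb, sub_sub_cancel _ _⟩
  have hall : summands (-w.1) = D 8 ∪ D 16 ∪ D 24 := by
    ext x
    constructor
    · rintro ⟨a, b, c⟩
      have c' := (neg_sub_spec hw b).1 c
      obtain ⟨k, hk⟩ := dot_dvd v.2 a
      have hne : ∀ y : GolayPt → ℤ, sqNorm y = 32 → v.1 - y ≠ 0 := fun y hy e => by
        rw [sub_eq_zero] at e; rw [e] at hv; omega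
      have h1 := sqNorm_min (sub_mem v.2 a) (hne x b)
      have h2 := sqNorm_min (sub_mem v.2 (sub_mem (neg_mem w.2) a)) (hne _ c)
      rw [sqNorm_sub] at h1
      rw [sqNorm_sub, dot_neg_sub, c] at h2
      rcases (by omega : k = 1 ∨ k = 2 ∨ k = 3) with rfl | rfl | rfl
      · exact Or.inl (Or.inl ⟨a, b, c', hk⟩)
      · exact Or.inl (Or.inr ⟨a, b, c', hk⟩)
      · exact Or.inr ⟨a, b, c', hk⟩
    · rintro ((⟨a, b, c, -⟩ | ⟨a, b, c, -⟩) | ⟨a, b, c, -⟩) <;> exact ⟨a, b, (neg_sub_spec hw b).2 c⟩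
  have h552 := summands_count (neg_mem w.2) ((sqNorm_neg _).trans hw)
  have d1 : Disjoint (D 8) (D 16) := Set.disjoint_left.2 fun x h h' => by
    have := h.2.2.2; have := h'.2.2.2; omega
  have d2 : Disjoint (D 8 ∪ D 16) (D 24) := Set.disjoint_left.2 fun x h h' => by
    have := h'.2.2.2
    rcases h with h | h <;> (have := h.2.2.2; omega)
  rw [hall, Set.ncard_union_eq d2 ((hfin 8).union (hfin 16)) (hfin 24), Set.ncard_union_eq d1 (hfin 8) (hfin 16),
    h8, h24] at h552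
  rw [← Set.ncard_image_of_injective _ Subtype.val_injective]
  refine Eq.trans (congrArg Set.ncard (Set.ext fun x => ?_)) (show (D 16).ncard = 352 by omega)
  constructor
  · rintro ⟨y, ⟨a, b, c⟩, rfl⟩; exact ⟨y.2, a, c, b⟩
  · rintro ⟨a, b, c, d⟩; exact ⟨⟨x, a⟩, ⟨b, d, c⟩, rfl⟩

end CfsgLib.HS352
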