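import Cfsg.Agent.HS352.Check
import Cfsg.Agent.HS352.Count

/-!
The stabiliser of a Higman-Sims pair on the 352 vectors.
-/

set_option autoImplicit false
set_option maxRecDepth 100000

namespace CfsgLib.HS352

open Cfsg CfsgLib.Leech CfsgLib.Leech.Co3Mult CfsgLib.Golay MulAction
open Equiv (Perm)

/-- The first vector. -/
def VH : leechLattice := ⟨_, inLeech_spec chk_fixed.2.2.1⟩

/-- The second vector. -/
def WH : leechLattice := ⟨_, inLeech_spec chk_fixed.2.2.2.1⟩

theorem pair_data : sqNorm VH.1 = 48 ∧ sqNorm WH.1 = 48 ∧ dotInt VH.1 WH.1 = -32 := chk_fixed.2.2.2.2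

/-- The joint stabiliser. -/
def KH : Subgroup Co0 := stabilizer Co0 VH ⊓ stabilizer Co0 WH

theorem mem_KH {g : Co0} : g ∈ KH ↔ g • VH = VH ∧ g • WH = WH := Iff.rfl

theorem card_KH : Nat.card KH = 44352000 := by
  obtain ⟨g, gv, gw⟩ := HS.exists_map_pair pair_data.1 pair_data.2.1 pair_data.2.2
  obtain ⟨e⟩ := HS.equiv_H gv gw
  rw [KH, Nat.card_congr e.toEquiv, HS.card_H]

instance finite_KH : Finite KH := Nat.finite_of_card_ne_zero (by rw [card_KH]; norm_num)

theorem vpt_spec (i : Fin 352) : wf (vpt i.val) = true ∧ inLeech (Val (vpt i.val)) = true ∧ ipOk (vpt i.val) = true := by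
  have h := allLt_spec chk_pts i.isLt
  simp only [Bool.and_eq_true] at h
  exact ⟨h.1.1, h.1.2, h.2⟩

/-- A point. -/
def P (i : Fin 352) : leechLattice := ⟨_, inLeech_spec (vpt_spec i).2.1⟩

theorem sum_list (f : ℕ → ℤ) : ((List.range 24).map f).sum = ∑ q : GolayPt, f (idx q).val := by
  rw [sum_pts f, ← List.toFinset_range, List.sum_toFinset _ List.nodup_range]

theorem isX_P (i : Fin 352) : IsX VH WH (P i) := by
  have h := (vpt_spec i).2.2
  simp only [ipOk, Bool.and_eq_true, beq_iff_eq, sum_list] at h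
  obtain ⟨⟨h1, h2⟩, h3⟩ := h
  refine ⟨?_, h2, h3⟩
  rw [← dot_self]
  exact h1

theorem incrN_pairwise : ∀ {l : List ℕ}, incrN l = true → l.Pairwise (· < ·)
  | [], _ => List.Pairwise.nil
  | [_], _ => List.pairwise_singleton _ _
  | x :: y :: r, h => by
    simp only [incrN, Bool.and_eq_true, decide_eq_true_eq] at h
    have ih := incrN_pairwise h.2
    refine List.pairwise_cons.2 ⟨fun z hz => ?_, ih⟩
    rcases List.mem_cons.1 hz with rfl | hz
    · exact h.1
    · exact h.1.trans ((List.pairwise_cons.1 ih).1 z hz)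

theorem inj_of_order {n : ℕ} {f : ℕ → ℕ} {ord : List ℕ}
    (h : ord.length = n ∧ (ord.all fun k => decide (k < n)) = true ∧ incrN (ord.map f) = true) {v w : Fin n}
    (e : f v.val = f w.val) : v = w := by
  simp only [List.all_eq_true, decide_eq_true_eq] at h
  obtain ⟨hlen, hb, hinc⟩ := h
  have hnd : (ord.map f).Nodup := (incrN_pairwise hinc).imp fun hlt => Nat.ne_of_lt hlt
  have hall : ∀ u : Fin n, u.val ∈ ord := by
    have hs : ord.toFinset = Finset.range n := Finset.eq_of_subset_of_card_le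
      (fun q hq => Finset.mem_range.2 (hb q (List.mem_toFinset.1 hq)))
      (by rw [Finset.card_range, List.toFinset_card_of_nodup (List.Nodup.of_map _ hnd), hlen])
    exact fun u => List.mem_toFinset.1 (hs.symm ▸ Finset.mem_range.2 u.isLt)
  exact Fin.ext (List.inj_on_of_nodup_map hnd (hall v) (hall w) e)

theorem P_inj {i j : Fin 352} (e : P i = P j) : i = j :=
  inj_of_order chk_ord (eq_of_Val (vpt_spec i).1 (vpt_spec j).1 (congrArg Subtype.val e))

theorem exhaust {y : leechLattice} (h : IsX VH WH y) : ∃ i, P i = y := by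
  have hfin : {x : leechLattice | IsX VH WH x}.Finite :=
    Set.finite_of_ncard_ne_zero (by rw [ncard_isX pair_data.1 pair_data.2.1 pair_data.2.2]; norm_num)
  have he : Set.range P = {x : leechLattice | IsX VH WH x} := by
    refine Set.eq_of_subset_of_ncard_le (Set.range_subset_iff.2 isX_P) ?_ hfin
    rw [ncard_isX pair_data.1 pair_data.2.1 pair_data.2.2, Set.ncard_range_of_injective fun i j => P_inj,
      Nat.card_fin]
  exact (he.symm ▸ h : y ∈ Set.range P)

theorem exists_pos (c : KH) (i : Fin 352) : ∃ j, P j = (c : Co0) • P i := by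
  obtain ⟨h1, h2, h3⟩ := isX_P i
  obtain ⟨cv, cw⟩ := mem_KH.1 c.2
  refine exhaust ⟨(norm_smul _ _).trans h1, ?_, ?_⟩
  · have := dot_smul (c : Co0) VH (P i)
    rw [cv] at this
    exact this.trans h2
  · have := dot_smul (c : Co0) WH (P i)
    rw [cw] at this
    exact this.trans h3

/-- The action on the vectors. -/
noncomputable def tau : KH →* Perm (Fin 352) :=
  MonoidHom.toHomPerm
    { toFun := fun c => (fun i => (exists_pos c i).choose : Function.End (Fin 352))
      map_one' := funext fun i => P_inj ((exists_pos 1 i).choose_spec.trans (one_smul _ _))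
      map_mul' := fun g h => funext fun i => P_inj (by
        show P (exists_pos (g * h) i).choose = P (exists_pos g (exists_pos h i).choose).choose
        rw [(exists_pos _ _).choose_spec, (exists_pos _ _).choose_spec, (exists_pos _ _).choose_spec,
          Subgroup.coe_mul, mul_smul]) }

theorem tau_spec (c : KH) (i : Fin 352) : P (tau c i) = (c : Co0) • P i := (exists_pos c i).choose_spec

/-- The packed table describes the element. -/
def Rep (t : ℕ) (c : KH) : Prop := ∀ k : Fin 352, (tau c k).val = tabN t k.val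

theorem mat_ex (g : Fin 2) : ∃ c : KH, Rep (permK.getD g.val 0) c := by
  have h := allLt_spec chk_mats g.isLt
  simp only [Bool.and_eq_true, Nat.beq_eq] at h
  obtain ⟨⟨⟨⟨hm, hv⟩, hv'⟩, hw⟩, hw'⟩ := h
  obtain ⟨a, ha⟩ := exists_aut hm
  have hM : wfM (matsK.getD g.val []) = true := by
    simp only [matOk, Bool.and_eq_true] at hm
    exact hm.1.1.1.1.1.1
  have hfix : ∀ (y : leechLattice) (f : ℕ), y.1 = Val f → wf f = true → apOk (matsK.getD g.val []) f = true →
      ∀ f', ap (matsK.getD g.val []) f = f' → (a • y).1 = Val f' := fun y f hy hf hap f' hf' => funext fun p => by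
    have h1 := (ap_spec hM hf hap).2 p
    rw [hf', ← hy, ← ha] at h1
    omega
  have hK : a ∈ KH := mem_KH.2 ⟨Subtype.ext (hfix VH vP rfl chk_fixed.1 hv vP hv'),
    Subtype.ext (hfix WH wP rfl chk_fixed.2.1 hw wP hw')⟩
  refine ⟨⟨a, hK⟩, fun k => ?_⟩
  have hk := allLt_spec (allLt_spec chk_perm g.isLt) k.isLt
  simp only [Bool.and_eq_true, Nat.beq_eq, decide_eq_true_eq] at hk
  obtain ⟨⟨hlt, hap⟩, he⟩ := hk
  have e : P (tau ⟨a, hK⟩ k) = P ⟨_, hlt⟩ :=
    (tau_spec _ k).trans (Subtype.ext (hfix (P k) (vpt k.val) rfl (vpt_spec k).1 hap _ he))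
  exact congrArg Fin.val (P_inj e)

/-- The matrices as elements. -/
noncomputable def kgen (g : Fin 2) : KH := (mat_ex g).choose

theorem kgen_rep (g : Fin 2) : Rep (permK.getD g.val 0) (kgen g) := (mat_ex g).choose_spec

theorem slp_mem {el : List ℕ} {st : List (ℕ × ℕ)} {x y : ℕ} (h : slpOk el st x y = true) (H : Subgroup KH)
    (hx : ∃ σ, σ ∈ H ∧ Rep x σ) (hy : ∃ σ, σ ∈ H ∧ Rep y σ) :
    ∀ i < el.length, ∃ σ, σ ∈ H ∧ Rep (el.getD i 0) σ := by
  simp only [slpOk, Bool.and_eq_true, beq_iff_eq, decide_eq_true_eq, List.all_eq_true, List.mem_range] at h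
  obtain ⟨⟨⟨hlen, h0⟩, h1⟩, hs⟩ := h
  intro i
  induction i using Nat.strong_induction_on with
  | _ i ih =>
    intro hi
    rcases i with _ | _ | k
    · exact h0.symm ▸ hx
    · exact h1.symm ▸ hy
    · obtain ⟨⟨ha, hb⟩, he⟩ := hs k (by omega)
      obtain ⟨s, hs1, hsr⟩ := ih _ (by omega) (show (st.getD k (0, 0)).1 < el.length by omega)
      obtain ⟨t, ht1, htr⟩ := ih _ (by omega) (show (st.getD k (0, 0)).2 < el.length by omega)
      refine ⟨s * t, mul_mem hs1 ht1, fun u => ?_⟩
      rw [map_mul, Perm.mul_apply, hsr, htr, ← beq_iff_eq.1 (allLt_spec he u.isLt)]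

theorem tree_card (H : Subgroup (Perm (Fin 352))) (el : List ℕ) (x : Fin 352) (gs : List ℕ)
    (hgs : ∀ g ∈ gs, ∃ σ ∈ H, ∀ k : Fin 352, (σ k).val = tabN (el.getD g 0) k.val) :
    ∀ (tr : List (ℕ × ℕ × ℕ)) (seen : ℕ) (T : Finset (Fin 352)), orbTree el tr gs seen = true →
      (∀ i, seen.testBit i = true ↔ ∃ t ∈ T, t.val = i) → (↑T ⊆ MulAction.orbit H x) →
      T.card + tr.length ≤ (MulAction.orbit H x).ncard
  | [], _, T, _, _, hsub => by
    rw [List.length_nil, Nat.add_zero, ← Set.ncard_coe_finset]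
    exact Set.ncard_le_ncard hsub
  | (g, p, q) :: r, seen, T, hok, hbit, hsub => by
    simp only [orbTree, Bool.and_eq_true, Bool.not_eq_true', beq_iff_eq, List.elem_iff] at hok
    obtain ⟨⟨⟨⟨hg, hp⟩, hq⟩, himg⟩, hrest⟩ := hok
    obtain ⟨t, ht, rfl⟩ := (hbit p).1 hp
    obtain ⟨σ, hσ, hr⟩ := hgs g hg
    have hv : (σ t).val = q := by rw [hr]; exact himg
    have hnew : σ t ∉ T := fun hm => by
      have := (hbit q).2 ⟨_, hm, hv⟩
      simp [hq] at this
    classical
    have := tree_card H el x gs hgs r (seen ||| 1 <<< q) (insert (σ t) T) hrest (fun i => ?_) ?_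
    · rw [Finset.card_insert_of_notMem hnew] at this
      rw [List.length_cons]
      omega
    · rw [Nat.testBit_lor, Nat.one_shiftLeft, Nat.testBit_two_pow, Bool.or_eq_true, decide_eq_true_eq, hbit]
      constructor
      · rintro (⟨s, hs, e⟩ | e)
        · exact ⟨s, Finset.mem_insert_of_mem hs, e⟩
        · exact ⟨σ t, Finset.mem_insert_self _ _, hv.trans e⟩
      · rintro ⟨s, hs, e⟩
        rcases Finset.mem_insert.1 hs with rfl | hs
        · exact Or.inr (hv.symm.trans e)
        · exact Or.inl ⟨s, hs, e⟩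
    · rw [Finset.coe_insert]
      refine Set.insert_subset_iff.2 ⟨?_, hsub⟩
      exact MulAction.mem_orbit_of_mem_orbit (⟨σ, hσ⟩ : H) (hsub ht)

theorem stab_split (H : Subgroup (Perm (Fin 352))) (x : Fin 352) :
    Nat.card H = (MulAction.orbit H x).ncard * Nat.card (H ⊓ stabilizer (Perm (Fin 352)) x : Subgroup _) := by
  have h := (stabilizer H x).card_mul_index
  rw [index_stabilizer, mul_comm] at h
  rw [← h]
  congr 1
  exact Nat.card_congr
    { toFun := fun g => ⟨g.1.1, g.1.2, g.2⟩
      invFun := fun g => ⟨⟨g.1, g.2.1⟩, g.2.2⟩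
      left_inv := fun _ => rfl
      right_inv := fun _ => rfl }

theorem card_ge (el : List ℕ) : ∀ (lv : List (ℕ × List ℕ × List (ℕ × ℕ × ℕ))) (pre : List ℕ)
    (H : Subgroup (Perm (Fin 352))), levOk el lv pre = true →
    (∀ i < el.length, (∀ q ∈ pre, tabN (el.getD i 0) q = q) → ∃ σ ∈ H, ∀ k : Fin 352, (σ k).val = tabN (el.getD i 0) k.val) →
    (lv.map fun l => l.2.2.length + 1).prod ≤ Nat.card H
  | [], _, H, _, _ => by rw [List.map_nil, List.prod_nil]; exact Nat.card_pos
  | (x, gs, tr) :: rest, pre, H, hok, hmem => by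
    simp only [levOk, Bool.and_eq_true, decide_eq_true_eq, List.all_eq_true, beq_iff_eq] at hok
    obtain ⟨⟨⟨hx, hg⟩, htr⟩, hrest⟩ := hok
    rw [List.map_cons, List.prod_cons, stab_split H ⟨x, hx⟩]
    refine Nat.mul_le_mul ?_ (card_ge el rest (x :: pre) _ hrest fun i hi hfix => ?_)
    · have h := tree_card H el ⟨x, hx⟩ gs (fun g hgm => hmem g (hg g hgm).1 (hg g hgm).2) tr (1 <<< x) {⟨x, hx⟩}
        htr (fun i => ?_) ?_
      · rw [Finset.card_singleton] at h
        show tr.length + 1 ≤ _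
        omega
      · rw [Nat.one_shiftLeft, Nat.testBit_two_pow]
        simp
      · rw [Finset.coe_singleton, Set.singleton_subset_iff]
        exact MulAction.mem_orbit_self _
    · obtain ⟨σ, hσ, hr⟩ := hmem i hi fun q hq => hfix q (List.mem_cons_of_mem _ hq)
      refine ⟨σ, ⟨hσ, Fin.ext ?_⟩, hr⟩
      show (σ ⟨x, hx⟩).val = x
      rw [hr]; exact hfix x List.mem_cons_self

/-- The first point. -/
def p0 : Fin 352 := 0

theorem tau_transitive (i : Fin 352) : ∃ c : KH, tau c p0 = i := by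
  have h := tree_card tau.range permK p0 [0, 1] (fun g hg => ?_) treeK (1 <<< 0) {p0} chk_treeK.1
    (fun j => ?_) ?_
  · rw [Finset.card_singleton, chk_treeK.2] at h
    have hu : MulAction.orbit tau.range p0 = Set.univ := by
      refine Set.eq_of_subset_of_ncard_le (Set.subset_univ _) ?_ (Set.finite_univ)
      rw [Set.ncard_univ, Nat.card_fin]
      omega
    obtain ⟨⟨σ, c, rfl⟩, hc⟩ : i ∈ MulAction.orbit tau.range p0 := hu ▸ Set.mem_univ i
    exact ⟨c, hc⟩
  · obtain rfl | rfl : g = 0 ∨ g = 1 := by simpa using hg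
    · exact ⟨_, ⟨kgen 0, rfl⟩, kgen_rep 0⟩
    · exact ⟨_, ⟨kgen 1, rfl⟩, kgen_rep 1⟩
  · rw [Nat.one_shiftLeft, Nat.testBit_two_pow]
    simp [p0]
  · rw [Finset.coe_singleton, Set.singleton_subset_iff]
    exact MulAction.mem_orbit_self _

/-- The stabiliser of the first point. -/
noncomputable def SH : Subgroup KH := (stabilizer (Perm (Fin 352)) p0).comap tau

theorem mem_SH {c : KH} : c ∈ SH ↔ tau c p0 = p0 := Iff.rfl

theorem card_SH : Nat.card SH = 126000 := by
  haveI : MulAction KH (Fin 352) := MulAction.compHom _ tau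
  have h := SH.card_mul_index
  have hidx : SH.index = 352 := by
    rw [Subgroup.index, ← Nat.card_fin 352]
    refine Nat.card_eq_of_bijective (Quotient.lift (fun c : KH => tau c p0) ?_) ⟨?_, ?_⟩
    · intro a b hab
      have h := mem_SH.1 ((QuotientGroup.leftRel_apply).1 hab)
      rw [map_mul, map_inv, Perm.mul_apply, Perm.inv_eq_iff_eq] at h
      exact h.symm
    · intro x y
      induction x using QuotientGroup.induction_on with | H a => ?_
      induction y using QuotientGroup.induction_on with | H b => ?_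
      intro h
      refine QuotientGroup.eq.2 (mem_SH.2 ?_)
      change tau a p0 = tau b p0 at h
      rw [map_mul, map_inv, Perm.mul_apply, Perm.inv_eq_iff_eq, h]
    · intro i
      obtain ⟨c, hc⟩ := tau_transitive i
      exact ⟨QuotientGroup.mk c, hc⟩
  rw [card_KH, hidx] at h
  omega

theorem sgen_ex (k : Fin 2) : ∃ c : KH, c ∈ SH ∧ Rep (gGen k.val) c := by
  obtain ⟨h1, h2, h3, h4⟩ := chk_idsG
  have key : ∀ i < eltsG.length, ∃ c : KH, Rep (eltsG.getD i 0) c := fun i hi => by
    obtain ⟨σ, -, h⟩ := slp_mem chk_progG ⊤ ⟨kgen 0, trivial, kgen_rep 0⟩ ⟨kgen 1, trivial, kgen_rep 1⟩ i hi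
    exact ⟨σ, h⟩
  fin_cases k
  · obtain ⟨σ, hσ⟩ := key _ h1
    exact ⟨σ, mem_SH.2 (Fin.ext (by rw [hσ]; exact h3)), hσ⟩
  · obtain ⟨σ, hσ⟩ := key _ h2
    exact ⟨σ, mem_SH.2 (Fin.ext (by rw [hσ]; exact h4)), hσ⟩

/-- The generators of the stabiliser. -/
noncomputable def sgen (k : Fin 2) : SH := ⟨(sgen_ex k).choose, (sgen_ex k).choose_spec.1⟩

theorem sgen_rep (k : Fin 2) : Rep (gGen k.val) (sgen k : KH) := (sgen_ex k).choose_spec.2

theorem map_coord (f : leechLattice →+ leechLattice) {c : List ℤ} {ys : List leechLattice}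
    (hf : ∀ y ∈ ys, f y = y) :
    f ((c.zip ys).map fun cy => cy.1 • cy.2).sum = ((c.zip ys).map fun cy => cy.1 • cy.2).sum := by
  rw [map_list_sum, List.map_map]
  refine congrArg List.sum (List.map_congr_left fun cy hcy => ?_)
  show f (cy.1 • cy.2) = cy.1 • cy.2
  rw [map_zsmul, hf _ (List.of_mem_zip hcy).2]

/-- An element fixing enough vectors is trivial. -/
theorem eq_one_of_fix {c : KH} (h0 : tau c p0 = p0)
    (hsep : ∀ p ∈ selV, ∀ hp : p < 352, tau c ⟨p, hp⟩ = ⟨p, hp⟩) : c = 1 := by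
  let f : leechLattice →+ leechLattice := AddMonoidHom.mk' (fun v => (c : Co0) • v) (smul_add' _)
  have hsel : ∀ p ∈ selV, p < 352 := fun p hp => by
    have := List.all_eq_true.1 chk_sel.1 p hp
    simp only [Bool.and_eq_true, decide_eq_true_eq] at this
    exact this.1
  have hP : ∀ i, tau c i = i → f (P i) = P i := fun i hi => by
    show (c : Co0) • P i = P i
    rw [← tau_spec, hi]
  let ys : List leechLattice := [VH, WH, P p0] ++ selV.attach.map fun p => P ⟨p.1, hsel p.1 p.2⟩
  let cs : List ℕ := [vP, wP, vpt 0] ++ selV.map vpt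
  have hys : ys.map Subtype.val = cs.map Val := by
    simp only [ys, cs, List.map_append, List.map_map]
    congr 1
  have hfix : ∀ y ∈ ys, f y = y := fun y hy => by
    simp only [ys, List.mem_append, List.mem_cons, List.not_mem_nil, or_false, List.mem_map, List.mem_attach,
      true_and, Subtype.exists] at hy
    rcases hy with (rfl | rfl | rfl) | ⟨p, hp, rfl⟩
    · exact (mem_KH.1 c.2).1
    · exact (mem_KH.1 c.2).2
    · exact hP _ h0
    · exact hP _ (hsep p hp _)
  have hE : ∀ j, f (eight j) = eight j := fun j => by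
    set E : leechLattice := eight j with hE
    let co := spanRows.getD (idx j).val []
    have hrow : ((co.zip ys).map fun cy => cy.1 • cy.2).sum = spanD • E := by
      refine Subtype.ext (funext fun p => ?_)
      rw [AddSubgroup.val_list_sum, List.map_map, AddSubgroup.coe_zsmul, Pi.smul_apply, smul_eq_mul,
        Pi.list_sum_apply, List.map_map]
      have h := allLt_spec (allLt_spec chk_span.2.2 (idx j).isLt) (idx p).isLt
      rw [beq_iff_eq] at h
      have hv : E.1 p = Val (e8 (idx j).val) p := by rw [hE, e8_val]; simp [eight, Pi.single_apply]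
      rw [hv]
      refine Eq.trans ?_ h
      refine congrArg List.sum ?_
      show (co.zip ys).map _ = (co.zip cs).map _
      have e1 : (co.zip cs).map (fun cy => cy.1 * ((fld cy.2 (idx p).val : ℤ) - 8)) =
          (co.zip (cs.map Val)).map fun cy => cy.1 * cy.2 p := by
        rw [List.zip_map_right, List.map_map]; rfl
      rw [e1, ← hys, List.zip_map_right, List.map_map]
      rfl
    have h2 := map_coord f (c := co) hfix
    rw [hrow, map_zsmul] at h2
    refine Subtype.ext (funext fun p => ?_)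
    have h3 := congrArg (fun z : leechLattice => z.1 p) h2
    simp only [AddSubgroup.coe_zsmul, Pi.smul_apply, smul_eq_mul] at h3
    exact mul_left_cancel₀ chk_span.1 h3
  refine Subtype.ext (ext_eights fun j => ?_)
  rw [OneMemClass.coe_one, one_smul]
  exact hE j

theorem tau_inj_SH : Function.Injective (tau.comp SH.subtype) :=
  (injective_iff_map_eq_one _).2 fun c hc => Subtype.ext
    (eq_one_of_fix (mem_SH.1 c.2) fun p _ hp => Perm.ext_iff.1 hc ⟨p, hp⟩)

theorem closure_sgen : Subgroup.closure (Set.range sgen) = ⊤ := by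
  refine Subgroup.eq_top_of_card_eq _ (le_antisymm (Subgroup.card_le_card_group _) ?_)
  rw [card_SH, ← chk_levS.2, Nat.card_congr (Subgroup.equivMapOfInjective _ _ tau_inj_SH).toEquiv]
  let H0 : Subgroup KH := (Subgroup.closure (Set.range sgen)).map SH.subtype
  rw [← Subgroup.map_map]
  refine card_ge eltsS levelsS [] _ chk_levS.1 fun i hi _ => ?_
  obtain ⟨σ, hσ, hr⟩ := slp_mem chk_progS H0
    ⟨sgen 0, ⟨sgen 0, Subgroup.subset_closure ⟨0, rfl⟩, rfl⟩, sgen_rep 0⟩
    ⟨sgen 1, ⟨sgen 1, Subgroup.subset_closure ⟨1, rfl⟩, rfl⟩, sgen_rep 1⟩ i hi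
  exact ⟨_, ⟨σ, hσ, rfl⟩, hr⟩

end CfsgLib.HS352
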