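import Cfsg.Agent.Leech.Co3MultVec
import Cfsg.Agent.PSU35.Code
import Cfsg.Agent.HS352.Data

/-!
Kernel checks for the action of the Higman-Sims group on 352 lattice vectors.
-/

set_option autoImplicit false
set_option maxRecDepth 100000
set_option Elab.async false

namespace CfsgLib.HS352

open CfsgLib.Leech CfsgLib.Leech.Co3Mult CfsgLib.Golay CfsgLib.PSU35

/-- All below a bound. -/
def allLt (n : ℕ) (f : ℕ → Bool) : Bool := (List.range n).all f

theorem allLt_spec {n : ℕ} {f : ℕ → Bool} (h : allLt n f = true) {k : ℕ} (hk : k < n) : f k = true :=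
  List.all_eq_true.1 h k (List.mem_range.2 hk)

/-- An entry of a packed permutation. -/
def tabN (t k : ℕ) : ℕ := (t >>> (9 * k)) &&& 511

/-- Increasing. -/
def incrN : List ℕ → Bool
  | [] => true
  | [_] => true
  | x :: y :: r => decide (x < y) && incrN (y :: r)

/-- A vector. -/
def vpt (i : ℕ) : ℕ := (ptsK.getD (i / 22) []).getD (i % 22) 0

/-- The vector has the right inner products. -/
def ipOk (y : ℕ) : Bool :=
  let s := fun (f : ℕ → ℤ) => ((List.range 24).map f).sum
  let c := fun (x t : ℕ) => ((fld x t : ℤ) - 8)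
  s (fun t => c y t * c y t) == 32 && s (fun t => c vP t * c y t) == 16 && s (fun t => c wP t * c y t) == -24

/-- Check of a program over two starting values. -/
def slpOk (el : List ℕ) (st : List (ℕ × ℕ)) (x y : ℕ) : Bool :=
  el.length == st.length + 2 && (el.getD 0 0 == x) && (el.getD 1 0 == y) &&
  (List.range st.length).all fun k => decide ((st.getD k (0, 0)).1 < k + 2) &&
    decide ((st.getD k (0, 0)).2 < k + 2) &&
    allLt 352 fun i => tabN (el.getD (k + 2) 0) i ==
      tabN (el.getD (st.getD k (0, 0)).1 0) (tabN (el.getD (st.getD k (0, 0)).2 0) i)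

/-- A spanning tree of an orbit. -/
def orbTree (el : List ℕ) : List (ℕ × ℕ × ℕ) → List ℕ → ℕ → Bool
  | [], _, _ => true
  | (g, p, q) :: r, gs, seen =>
    gs.elem g && seen.testBit p && !seen.testBit q && tabN (el.getD g 0) p == q && orbTree el r gs (seen ||| 1 <<< q)

/-- Check of a chain. -/
def levOk (el : List ℕ) : List (ℕ × List ℕ × List (ℕ × ℕ × ℕ)) → List ℕ → Bool
  | [], _ => true
  | (x, gs, tr) :: rest, pre =>
    decide (x < 352) && (gs.all fun g => decide (g < el.length) && pre.all fun q => tabN (el.getD g 0) q == q) &&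
    orbTree el tr gs (1 <<< x) && levOk el rest (x :: pre)

/-- An object. -/
def objN (j : ℕ) : ℕ := objs.getD j 0

/-- A generator of the stabiliser. -/
def gGen (k : ℕ) : ℕ := eltsG.getD (if k == 0 then g1Id else g2Id) 0

/-- The image of an object. -/
def imgO (k j : ℕ) : ℕ := (permO.getD k []).getD j 0

/-- The isotropic point of an object. -/
def ptV (j : ℕ) : V := let n := ptCodes.getD j 0; (n % 25, n / 25 % 25, n / 625 % 25)

/-- The number of a vector. -/
def enc (v : V) : ℕ := v.1 + 25 * v.2.1 + 625 * v.2.2

/-- The index of a point. -/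
def idxV (v : V) : ℕ := (ptTab.getD (enc v / 125) []).getD (enc v % 125) 0

/-- A unitary matrix. -/
def matU (k : ℕ) : M := matsU.getD k oneM

theorem chk_fixed : wf vP = true ∧ wf wP = true ∧ inLeech (Val vP) = true ∧ inLeech (Val wP) = true ∧
    Cfsg.sqNorm (Val vP) = 48 ∧ Cfsg.sqNorm (Val wP) = 48 ∧ Cfsg.dotInt (Val vP) (Val wP) = -32 := by decide +kernel

theorem chk_mats : (allLt 2 fun g => matOk (matsK.getD g []) (invsK.getD g []) &&
    apOk (matsK.getD g []) vP && Nat.beq (ap (matsK.getD g []) vP) vP &&
    apOk (matsK.getD g []) wP && Nat.beq (ap (matsK.getD g []) wP) wP) = true := by decide +kernel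

theorem chk_pts : (allLt 352 fun i => wf (vpt i) && inLeech (Val (vpt i)) && ipOk (vpt i)) = true := by decide +kernel

theorem chk_ord : ordK.length = 352 ∧ (ordK.all fun i => decide (i < 352)) = true ∧
    incrN (ordK.map vpt) = true := by decide +kernel

theorem chk_perm : (allLt 2 fun g => allLt 352 fun i => decide (tabN (permK.getD g 0) i < 352) &&
    apOk (matsK.getD g []) (vpt i) && Nat.beq (ap (matsK.getD g []) (vpt i)) (vpt (tabN (permK.getD g 0) i))) = true := by
  decide +kernel

theorem chk_treeK : orbTree permK treeK [0, 1] (1 <<< 0) = true ∧ treeK.length = 351 := by decide +kernel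

theorem chk_progG : slpOk eltsG stepsG (permK.getD 0 0) (permK.getD 1 0) = true := by decide +kernel

theorem chk_idsG : g1Id < eltsG.length ∧ g2Id < eltsG.length ∧ tabN (gGen 0) 0 = 0 ∧ tabN (gGen 1) 0 = 0 := by
  decide +kernel

theorem chk_progS : slpOk eltsS stepsS (gGen 0) (gGen 1) = true := by decide +kernel

theorem chk_levS : levOk eltsS levelsS [] = true ∧ (levelsS.map fun l => l.2.2.length + 1).prod = 126000 := by
  decide +kernel

theorem chk_objs : ordO.length = 126 ∧ (ordO.all fun i => decide (i < 126)) = true ∧ incrN (ordO.map objN) = true ∧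
    (allLt 126 fun j => decide (objN j < 2 ^ 352)) = true := by decide +kernel

theorem chk_imgs : (allLt 2 fun k => allLt 126 fun j => decide (imgO k j < 126) &&
    allLt 352 fun x => (objN (imgO k j)).testBit (tabN (gGen k) x) == (objN j).testBit x) = true := by decide +kernel

theorem chk_sel : (selV.all fun p => decide (p < 352) && sepPts.elem p) = true ∧
    (sepPts.all fun p => ((List.range 126).filter fun j => (objN j).testBit p).foldr (fun j t => objN j &&& t)
      (2 ^ 352 - 1) == 2 ^ p) = true := by decide +kernel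

theorem chk_span : spanD ≠ 0 ∧ spanRows.length = 24 ∧ (allLt 24 fun j => allLt 24 fun t =>
    (((spanRows.getD j []).zip ([vP, wP, vpt 0] ++ selV.map vpt)).map fun cy => cy.1 * ((fld cy.2 t : ℤ) - 8)).sum ==
      spanD * ((fld (e8 j) t : ℤ) - 8)) = true := by decide +kernel

theorem chk_ptV : (allLt 126 fun j => okV (ptV j) && ptV j != (0, 0, 0) && hermC (ptV j) (ptV j) == 0 &&
    (List.range 25).all fun c => c == 0 || idxV (normV (smulV c (ptV j))) == j) = true := by decide +kernel

theorem chk_ptsAll : (allLt 25 fun a => allLt 25 fun b => allLt 25 fun c =>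
    (a, b, c) == (0, 0, 0) || hermC (a, b, c) (a, b, c) != 0 ||
      (decide (idxV (normV (a, b, c)) < 126) &&
        (List.range 25).any fun l => smulV l (ptV (idxV (normV (a, b, c)))) == (a, b, c))) = true := by decide +kernel

theorem chk_matU : (allLt 2 fun k => isU (matU k) && allLt 126 fun j =>
    (List.range 25).any fun c => mvC (matU k) (ptV j) == smulV c (ptV (imgO k j))) = true := by decide +kernel

end CfsgLib.HS352
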