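import Cfsg.Agent.HS352.Action
import Cfsg.Agent.UGeom.Simple
import Cfsg.Agent.UGeom.Center

/-!
The stabiliser of one of the 352 vectors is the three-dimensional unitary group over 25 elements.
-/

set_option autoImplicit false
set_option maxRecDepth 100000

namespace CfsgLib.HS352

open Matrix CfsgLib.UGeom CfsgLib.PSU35
open Equiv (Perm)
open MulAction (toPermHom)

/-- The image of an object. -/
def Img (c : SH) (j j' : Fin 126) : Prop :=
  ∀ x : Fin 352, (objN j'.val).testBit (tau (c : KH) x).val = (objN j.val).testBit x.val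

theorem obj_lt (j : Fin 126) : objN j.val < 2 ^ 352 := of_decide_eq_true (allLt_spec chk_objs.2.2.2 j.isLt)

theorem img_unique {c : SH} {j j' j'' : Fin 126} (h1 : Img c j j') (h2 : Img c j j'') : j' = j'' := by
  refine inj_of_order ⟨chk_objs.1, chk_objs.2.1, chk_objs.2.2.1⟩ (Nat.eq_of_testBit_eq fun y => ?_)
  by_cases hy : y < 352
  · obtain ⟨x, hx⟩ := (tau (c : KH)).surjective ⟨y, hy⟩
    have e := congrArg Fin.val hx
    simp only at e
    rw [← e, h1, h2]
  · rw [Nat.testBit_lt_two_pow ((obj_lt j').trans_le (Nat.pow_le_pow_right (by norm_num) (by omega))),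
      Nat.testBit_lt_two_pow ((obj_lt j'').trans_le (Nat.pow_le_pow_right (by norm_num) (by omega)))]

theorem img_sgen (k : Fin 2) (j : Fin 126) : ∃ j', Img (sgen k) j j' ∧ j'.val = imgO k.val j.val := by
  have h := allLt_spec (allLt_spec chk_imgs k.isLt) j.isLt
  simp only [Bool.and_eq_true, decide_eq_true_eq] at h
  exact ⟨⟨_, h.1⟩, fun x => by rw [sgen_rep k x]; exact beq_iff_eq.1 (allLt_spec h.2 x.isLt), rfl⟩

theorem exists_img (c : SH) (j : Fin 126) : ∃ j', Img c j j' := by
  have hc : c ∈ Subgroup.closure (Set.range sgen) := closure_sgen ▸ Subgroup.mem_top c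
  induction hc using Subgroup.closure_induction generalizing j with
  | mem x hx => obtain ⟨k, rfl⟩ := hx; exact ⟨_, (img_sgen k j).choose_spec.1⟩
  | one => exact ⟨j, fun x => by rw [OneMemClass.coe_one, map_one]; rfl⟩
  | mul a b _ _ ha hb =>
    obtain ⟨u, hu⟩ := hb j
    obtain ⟨w, hw⟩ := ha u
    exact ⟨w, fun x => by rw [Subgroup.coe_mul, map_mul, Perm.mul_apply, hw, hu]⟩
  | inv a _ ha =>
    choose f hf using ha
    have hinj : Function.Injective f := fun u v e => by
      have hu := hf u
      have hv := hf v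
      rw [e] at hu
      refine inj_of_order ⟨chk_objs.1, chk_objs.2.1, chk_objs.2.2.1⟩ (Nat.eq_of_testBit_eq fun y => ?_)
      by_cases hy : y < 352
      · exact (hu ⟨y, hy⟩).symm.trans (hv ⟨y, hy⟩)
      · rw [Nat.testBit_lt_two_pow ((obj_lt u).trans_le (Nat.pow_le_pow_right (by norm_num) (by omega))),
          Nat.testBit_lt_two_pow ((obj_lt v).trans_le (Nat.pow_le_pow_right (by norm_num) (by omega)))]
    obtain ⟨u, rfl⟩ := Finite.injective_iff_surjective.1 hinj j
    refine ⟨u, fun x => ?_⟩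
    have h := hf u ((tau (a : KH)).symm x)
    rw [Equiv.apply_symm_apply] at h
    rw [Subgroup.coe_inv, map_inv]
    exact h.symm

/-- The action on the objects. -/
noncomputable def psi : SH →* Perm (Fin 126) :=
  MonoidHom.toHomPerm
    { toFun := fun c => (fun j => (exists_img c j).choose : Function.End (Fin 126))
      map_one' := funext fun j => img_unique (exists_img 1 j).choose_spec fun x => by
        show (objN j.val).testBit (tau ((1 : SH) : KH) x).val = _
        rw [OneMemClass.coe_one, map_one]; rfl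
      map_mul' := fun g h => funext fun j => img_unique (exists_img (g * h) j).choose_spec fun x => by
        show (objN (exists_img g (exists_img h j).choose).choose.val).testBit _ = _
        rw [Subgroup.coe_mul, map_mul]
        exact ((exists_img g (exists_img h j).choose).choose_spec _).trans ((exists_img h j).choose_spec x) }

theorem psi_spec (c : SH) (j : Fin 126) : Img c j (psi c j) := (exists_img c j).choose_spec

theorem psi_sgen (k : Fin 2) (j : Fin 126) : (psi (sgen k) j).val = imgO k.val j.val := by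
  obtain ⟨j', h, e⟩ := img_sgen k j
  rw [img_unique (psi_spec _ j) h, e]

theorem testBit_meet : ∀ (L : List ℕ) (t y : ℕ),
    (L.foldr (fun j t => objN j &&& t) t).testBit y = (L.all (fun j => (objN j).testBit y) && t.testBit y)
  | [], t, y => by simp
  | a :: L, t, y => by rw [List.foldr_cons, Nat.testBit_land, testBit_meet L, List.all_cons, Bool.and_assoc]

theorem psi_injective : Function.Injective psi := by
  refine (injective_iff_map_eq_one psi).2 fun c hc => Subtype.ext ?_
  refine eq_one_of_fix (mem_SH.1 c.2) fun p hp hlt => ?_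
  have hs := List.all_eq_true.1 chk_sel.1 p hp
  simp only [Bool.and_eq_true, decide_eq_true_eq, List.elem_iff] at hs
  have he := List.all_eq_true.1 chk_sel.2 p hs.2
  rw [beq_iff_eq] at he
  set L := (List.range 126).filter fun j => (objN j).testBit p with hL
  refine Fin.ext ?_
  have hkey : ∀ y : Fin 352, (2 ^ p : ℕ).testBit y.val = L.all fun j => (objN j).testBit y.val := fun y => by
    rw [← he, testBit_meet, Nat.testBit_two_pow_sub_one, decide_eq_true y.isLt, Bool.and_true]
  have h1 : (2 ^ p : ℕ).testBit (tau (c : KH) ⟨p, hlt⟩).val = true := by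
    rw [hkey, List.all_eq_true]
    intro j hj
    obtain ⟨hj1, hj2⟩ := List.mem_filter.1 hj
    have h := psi_spec c ⟨j, List.mem_range.1 hj1⟩ ⟨p, hlt⟩
    rw [hc] at h
    exact h.trans hj2
  rw [Nat.testBit_two_pow, decide_eq_true_eq] at h1
  exact h1.symm

variable {F : Type} [Field F] [Fintype F] (R : PSU35.Root F)

theorem ptV_spec (j : Fin 126) : okV (ptV j.val) = true ∧ ptV j.val ≠ (0, 0, 0) ∧
    hermC (ptV j.val) (ptV j.val) = 0 ∧ ∀ c < 25, c ≠ 0 → idxV (normV (smulV c (ptV j.val))) = j.val := by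
  have h := allLt_spec chk_ptV j.isLt
  simp only [Bool.and_eq_true, List.all_eq_true, List.mem_range, Bool.or_eq_true, beq_iff_eq, bne_iff_ne] at h
  exact ⟨h.1.1.1, h.1.1.2, h.1.2, fun c hc h0 => (h.2 c hc).resolve_left h0⟩

theorem φv_zero : φv R (0, 0, 0) = 0 := by
  funext i; fin_cases i <;> simp [φv, φ_zero]

theorem φv_ne (j : Fin 126) : φv R (ptV j.val) ≠ 0 := fun h =>
  (ptV_spec j).2.1 (φv_inj R (ptV_spec j).1 rfl (h.trans (φv_zero R).symm))

theorem φv_iso (j : Fin 126) : Cfsg.hermForm 3 F 5 (φv R (ptV j.val)) (φv R (ptV j.val)) = 0 := by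
  rw [← φ_hermC, (ptV_spec j).2.2.1, φ_zero]

/-- The isotropic point of an index. -/
noncomputable def isoOf (j : Fin 126) : Iso 3 F 5 := isoPt R.conj (φv_ne R j) (φv_iso R j)

theorem isoOf_bijective : Function.Bijective (isoOf R) := by
  constructor
  · intro i j h
    obtain ⟨a, ha⟩ := (isoPt_eq_iff R.conj _ _ _ _).1 h
    obtain ⟨c, hc, rfl⟩ := φ_surj R a
    have hc0 : c ≠ 0 := by
      rintro rfl
      rw [φ_zero, zero_smul] at ha
      exact φv_ne R i ha.symm
    rw [← φv_smulV] at ha
    have e := φv_inj R (okV_smulV _ _) (ptV_spec i).1 ha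
    have hj := (ptV_spec j).2.2.2 c hc hc0
    rw [e] at hj
    have hi := (ptV_spec i).2.2.2 1 (by norm_num) one_ne_zero
    have h1 : smulV 1 (ptV i.val) = ptV i.val := by
      refine φv_inj R (okV_smulV _ _) (ptV_spec i).1 ?_
      rw [φv_smulV, φ_one, one_smul]
    rw [h1] at hi
    exact Fin.ext (hi.symm.trans hj)
  · intro p
    obtain ⟨v, hv, hvv, rfl⟩ := iso_cases R.conj p
    obtain ⟨⟨a, b, c⟩, hw, rfl⟩ := φv_surj R v
    have hw' := hw
    simp only [okV, Bool.and_eq_true, decide_eq_true_eq] at hw'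
    have h := allLt_spec (allLt_spec (allLt_spec chk_ptsAll hw'.1.1) hw'.1.2) hw'.2
    simp only [Bool.and_eq_true, Bool.or_eq_true, decide_eq_true_eq, List.any_eq_true, List.mem_range,
      beq_iff_eq, bne_iff_ne] at h
    rcases h with (h | h) | ⟨h, l, -, hl⟩
    · exact absurd ((congrArg (φv R) h).trans (φv_zero R)) hv
    · exact absurd (φ_inj R (dotC_lt _ _) (by norm_num) ((φ_hermC R _ _).trans (hvv.trans (φ_zero R).symm))) h
    · exact ⟨⟨_, h⟩, ((isoPt_eq_iff R.conj _ _ _ _).2 ⟨φ R l, by rw [← φv_smulV, hl]⟩).symm⟩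

theorem card_PSU35 (C : Conj F 5) : Nat.card (Cfsg.PSU 3 F 5) = 126000 := by
  have h := card_PSU C (n := 3) (by norm_num)
  norm_num [Finset.prod_range_succ, Nat.even_iff] at h
  omega

theorem nonempty_equiv (R : PSU35.Root F) : Nonempty (SH ≃* Cfsg.PSU 3 F 5) := by
  haveI : Fact (Nonempty (Conj F 5)) := ⟨⟨R.conj⟩⟩
  have hker : Subgroup.center (Cfsg.SU 3 F 5) ≤ (toPermHom (Cfsg.SU 3 F 5) (Iso 3 F 5)).ker := fun A hA =>
    MonoidHom.mem_ker.2 (Equiv.ext fun p => fix_of_mem_center R.conj le_rfl A hA p)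
  let ρ : Cfsg.PSU 3 F 5 →* Perm (Iso 3 F 5) := QuotientGroup.lift _ _ hker
  have hρ : Function.Injective ρ := by
    refine (injective_iff_map_eq_one ρ).2 fun x hx => ?_
    obtain ⟨A, rfl⟩ := QuotientGroup.mk_surjective x
    exact (QuotientGroup.eq_one_iff A).2 (mem_center_of_fix R.conj le_rfl A fun p => Perm.ext_iff.1 hx p)
  let e : Fin 126 ≃ Iso 3 F 5 := Equiv.ofBijective _ (isoOf_bijective R)
  let τ : SH →* Perm (Iso 3 F 5) := e.permCongrHom.toMonoidHom.comp psi
  have hτ : Function.Injective τ := e.permCongrHom.injective.comp psi_injective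
  have hle : τ.range ≤ ρ.range := by
    rw [MonoidHom.range_eq_map, ← closure_sgen, MonoidHom.map_closure, Subgroup.closure_le]
    rintro _ ⟨_, ⟨k, rfl⟩, rfl⟩
    have h := allLt_spec chk_matU k.isLt
    simp only [Bool.and_eq_true] at h
    obtain ⟨g, hg⟩ := mem_SU_of_isU R h.1
    refine ⟨QuotientGroup.mk g, Equiv.ext fun p => ?_⟩
    obtain ⟨j, rfl⟩ := e.surjective p
    show g • e j = e (psi (sgen k) (e.symm (e j)))
    rw [Equiv.symm_apply_apply]
    show g • isoOf R j = isoOf R (psi (sgen k) j)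
    rw [isoOf, smul_isoPt, isoOf, isoPt_eq_iff]
    have h2 := allLt_spec h.2 j.isLt
    simp only [List.any_eq_true, beq_iff_eq, List.mem_range] at h2
    obtain ⟨c, -, hc⟩ := h2
    exact ⟨φ R c, by rw [hg, ← φv_mvC, hc, φv_smulV, psi_sgen]⟩
  have hcard : Nat.card τ.range = Nat.card ρ.range := by
    rw [← Nat.card_congr (MonoidHom.ofInjective hτ).toEquiv, ← Nat.card_congr (MonoidHom.ofInjective hρ).toEquiv,
      card_SH, card_PSU35 R.conj]
  haveI : Finite (Cfsg.PSU 3 F 5) := Nat.finite_of_card_ne_zero (by rw [card_PSU35 R.conj]; norm_num)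
  haveI : Finite ρ.range := Finite.of_equiv _ (MonoidHom.ofInjective hρ).toEquiv
  have heq := Subgroup.eq_of_le_of_card_ge hle hcard.ge
  exact ⟨((MonoidHom.ofInjective hτ).trans (MulEquiv.subgroupCongr heq)).trans (MonoidHom.ofInjective hρ).symm⟩

end CfsgLib.HS352
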