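import Cfsg.Agent.HS352.Iso

/-!
The Higman-Sims group is transitive on 352 vectors with point stabiliser the unitary group.
-/

set_option autoImplicit false
set_option maxRecDepth 100000

namespace CfsgLib.HS352

open Cfsg CfsgLib.Leech MulAction

/-- The stabiliser of three vectors. -/
noncomputable abbrev St3 (u v x : ↥leechLattice) : Subgroup ↥Co0 :=
  stabilizer ↥Co0 u ⊓ stabilizer ↥Co0 v ⊓ stabilizer ↥Co0 x

theorem mem_St3 {u v x : ↥leechLattice} {g : ↥Co0} : g ∈ St3 u v x ↔ (g • u = u ∧ g • v = v) ∧ g • x = x := by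
  simp [St3, Subgroup.mem_inf, mem_stabilizer_iff]

theorem conj_mem {u v x u' v' x' : ↥leechLattice} {g h : ↥Co0} (hu : g • u = u') (hv : g • v = v')
    (hx : g • x = x') (hh : h ∈ St3 u v x) : g * h * g⁻¹ ∈ St3 u' v' x' := by
  obtain ⟨⟨a, b⟩, c⟩ := mem_St3.1 hh
  have key : ∀ {w w' : ↥leechLattice}, g • w = w' → h • w = w → (g * h * g⁻¹) • w' = w' := fun e1 e2 => by
    rw [mul_smul, mul_smul, ← e1, inv_smul_smul, e2]
  exact mem_St3.2 ⟨⟨key hu a, key hv b⟩, key hx c⟩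

/-- Conjugate triples have isomorphic stabilisers. -/
noncomputable def conjSt3 {u v x u' v' x' : ↥leechLattice} (g : ↥Co0) (hu : g • u = u') (hv : g • v = v')
    (hx : g • x = x') : St3 u v x ≃* St3 u' v' x' where
  toFun h := ⟨g * h * g⁻¹, conj_mem hu hv hx h.2⟩
  invFun k := ⟨g⁻¹ * k * g, by
    have := conj_mem (g := g⁻¹) (eq_inv_smul_iff.2 hu).symm (eq_inv_smul_iff.2 hv).symm
      (eq_inv_smul_iff.2 hx).symm k.2
    rwa [inv_inv] at this⟩
  left_inv h := Subtype.ext (by simp [mul_assoc])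
  right_inv k := Subtype.ext (by simp [mul_assoc])
  map_mul' a b := Subtype.ext (by simp [mul_assoc])

theorem std_equiv : Nonempty (St3 VH WH (P p0) ≃* SH) := by
  have hfix : ∀ c : KH, c ∈ SH ↔ (c : ↥Co0) • P p0 = P p0 := fun c => by
    rw [mem_SH, ← tau_spec]
    exact ⟨fun h => by rw [h], fun h => P_inj h⟩
  exact ⟨
    { toFun := fun g => ⟨⟨g.1, mem_KH.2 (mem_St3.1 g.2).1⟩, (hfix _).2 (mem_St3.1 g.2).2⟩
      invFun := fun c => ⟨c.1.1, mem_St3.2 ⟨mem_KH.1 c.1.2, (hfix _).1 c.2⟩⟩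
      left_inv := fun _ => rfl
      right_inv := fun _ => rfl
      map_mul' := fun _ _ => rfl }⟩

theorem isX_smul {v w x : ↥leechLattice} (g : ↥Co0) (h : IsX v w x) : IsX (g • v) (g • w) (g • x) :=
  ⟨(norm_smul _ _).trans h.1, (dot_smul _ _ _).trans h.2.1, (dot_smul _ _ _).trans h.2.2⟩

theorem main (v w : ↥leechLattice) (hv : sqNorm v.1 = 48) (hw : sqNorm w.1 = 48) (hvw : dotInt v.1 w.1 = -32)
    (F : Type) [Field F] [Fintype F] (hF : Fintype.card F = 25) :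
    {x : ↥leechLattice | IsX v w x}.ncard = 352 ∧ (∀ x, IsX v w x → IsX v w (-w - x)) ∧
    (∀ x, IsX v w x → ∀ x', IsX v w x' → ∃ g : ↥Co0, g • v = v ∧ g • w = w ∧ g • x = x') ∧
    ∀ x, IsX v w x → Nonempty (↥(St3 v w x) ≃* PSU 3 F 5) := by
  obtain ⟨a, av, aw⟩ := HS.exists_map_pair hv hw hvw
  obtain ⟨b, bv, bw⟩ := HS.exists_map_pair pair_data.1 pair_data.2.1 pair_data.2.2
  have tov : (b⁻¹ * a) • v = VH := by rw [mul_smul, av, inv_smul_eq_iff, bv]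
  have tow : (b⁻¹ * a) • w = WH := by rw [mul_smul, aw, inv_smul_eq_iff, bw]
  have move : ∀ x, IsX v w x → ∃ g : ↥Co0, g • v = VH ∧ g • w = WH ∧ g • x = P p0 := fun x hx => by
    obtain ⟨i, hi⟩ := exhaust (y := (b⁻¹ * a) • x) (by rw [← tov, ← tow]; exact isX_smul _ hx)
    obtain ⟨c, hc⟩ := tau_transitive i
    obtain ⟨cv, cw⟩ := mem_KH.1 c.2
    refine ⟨(c : ↥Co0)⁻¹ * (b⁻¹ * a), ?_, ?_, ?_⟩
    · rw [mul_smul, tov, inv_smul_eq_iff, cv]
    · rw [mul_smul, tow, inv_smul_eq_iff, cw]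
    · rw [mul_smul, ← hi, inv_smul_eq_iff, ← tau_spec, hc]
  refine ⟨ncard_isX hv hw hvw, fun x hx => isX_mirror hw hvw hx, fun x hx x' hx' => ?_, fun x hx => ?_⟩
  · obtain ⟨g, g1, g2, g3⟩ := move x hx
    obtain ⟨h, h1, h2, h3⟩ := move x' hx'
    refine ⟨h⁻¹ * g, ?_, ?_, ?_⟩
    · rw [mul_smul, g1, inv_smul_eq_iff, h1]
    · rw [mul_smul, g2, inv_smul_eq_iff, h2]
    · rw [mul_smul, g3, inv_smul_eq_iff, h3]
  · obtain ⟨g, g1, g2, g3⟩ := move x hx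
    obtain ⟨e1⟩ := std_equiv
    obtain ⟨R⟩ := PSU35.nonempty_root hF
    obtain ⟨e2⟩ := nonempty_equiv R
    exact ⟨((conjSt3 g g1 g2 g3).trans e1).trans e2⟩

end CfsgLib.HS352
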